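import Cfsg.Agent.Lib.H16.CE.S1686b.T0

set_option autoImplicit false
set_option maxRecDepth 1000000

namespace Cfsg.Agent.H16.CE.S1686b
open Cfsg.Agent.H16.CosetEnum
open Cfsg.Agent.H16.Enum (walk)

noncomputable section

theorem hr0 : rangeAll (allAt LL) 0 288 = true := by decide +kernel

end

end Cfsg.Agent.H16.CE.S1686b
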